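import Mathlib
import Cfsg.Agent.H51.Mult

/-!
# Lifting homomorphisms from perfect groups without covers

`exists_lift`: `π : L → X` surjective with central kernel of prime order `p`, `f : K → X` a homomorphism from a finite
perfect group with `NoCov p K`.  Then `f` lifts to `s : K → L` with `π ∘ s = f`.

`lift_unique`: two lifts of a homomorphism from a perfect group agree.
-/

set_option autoImplicit false
set_option linter.style.haveILetI false
set_option linter.unusedVariables false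

namespace Cfsg.Agent.H52.Section

open Subgroup Cfsg.Agent.H51.Mult
open scoped commutatorElement

universe u

/-- Two lifts of a homomorphism from a perfect group agree. -/
theorem lift_unique {K L X : Type*} [Group K] [Group L] [Group X] {π : L →* X}
    (hcen : ∀ z, π z = 1 → ∀ g, z * g = g * z) (hK : commutator K = ⊤) {s t : K →* L}
    (h : ∀ k, π (s k) = π (t k)) : s = t := by
  -- `k ↦ s k * (t k)⁻¹` is a homomorphism with central image
  have hz : ∀ k, π (s k * (t k)⁻¹) = 1 := fun k => by rw [map_mul, map_inv, h, mul_inv_cancel]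
  let ρ : K →* L := MonoidHom.mk' (fun k => s k * (t k)⁻¹) (fun a b => by
    have hb := hcen _ (hz b)
    rw [map_mul, map_mul, mul_inv_rev]
    calc s a * s b * ((t b)⁻¹ * (t a)⁻¹) = s a * ((s b * (t b)⁻¹) * (t a)⁻¹) := by group
      _ = s a * ((t a)⁻¹ * (s b * (t b)⁻¹)) := by rw [hb]
      _ = _ := by group)
  have hρ : ∀ k, ρ k = s k * (t k)⁻¹ := fun _ => rfl
  have hle : commutator K ≤ ρ.ker := by
    rw [commutator_def, commutator_le]
    intro a _ b _
    rw [MonoidHom.mem_ker, map_commutatorElement, commutatorElement_eq_one_iff_mul_comm, hρ, hρ]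
    exact hcen _ (hz a) _
  ext k
  have h1 : k ∈ ρ.ker := hle (by rw [hK]; exact mem_top k)
  exact mul_inv_eq_one.1 h1

/-- The lift. -/
theorem exists_lift {K X L : Type} [Group K] [Finite K] [Group X] [Group L] [Finite L] {π : L →* X}
    (hsurj : Function.Surjective π) (hcen : ∀ z, π z = 1 → ∀ g, z * g = g * z) {p : ℕ} (hp : p.Prime)
    (hc : Nat.card π.ker = p) (hK : commutator K = ⊤) (hN : NoCov p K) (f : K →* X) :
    ∃ s : K →* L, ∀ k, π (s k) = f k := by
  -- the pullback
  let T : Subgroup (K × L) :=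
    { carrier := {q | f q.1 = π q.2}
      mul_mem' := by
        intro a b ha hb
        show f (a.1 * b.1) = π (a.2 * b.2)
        rw [map_mul, map_mul, show f a.1 = π a.2 from ha, show f b.1 = π b.2 from hb]
      one_mem' := by
        show f 1 = π 1
        rw [map_one, map_one]
      inv_mem' := by
        intro a ha
        show f a.1⁻¹ = π a.2⁻¹
        rw [map_inv, map_inv, show f a.1 = π a.2 from ha] }
  have hTm : ∀ {q : K × L}, q ∈ T ↔ f q.1 = π q.2 := Iff.rfl
  -- its derived subgroup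
  set D : Subgroup (K × L) := ⁅T, T⁆ with hD
  have hDT : D ≤ T := by
    rw [hD, commutator_le]
    intro a ha b hb
    rw [commutatorElement_def]
    exact mul_mem (mul_mem (mul_mem ha hb) (inv_mem ha)) (inv_mem hb)
  have hTfst : T.map (MonoidHom.fst K L) = ⊤ := by
    rw [eq_top_iff]
    intro k _
    obtain ⟨l, hl⟩ := hsurj (f k)
    exact ⟨(k, l), hTm.2 hl.symm, rfl⟩
  have hDfst : D.map (MonoidHom.fst K L) = ⊤ := by
    rw [hD, Subgroup.map_commutator, hTfst, ← commutator_def, hK]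
  -- `T = D Z`
  have hT1 : ∀ x ∈ T, ∃ y ∈ D, ∃ z : K × L, (z.1 = 1 ∧ π z.2 = 1) ∧ x = y * z := by
    intro x hx
    have h2 : x.1 ∈ D.map (MonoidHom.fst K L) := by rw [hDfst]; exact mem_top _
    obtain ⟨y, hy, hyx⟩ := h2
    have hyx' : y.1 = x.1 := hyx
    refine ⟨y, hy, y⁻¹ * x, ⟨?_, ?_⟩, by rw [mul_inv_cancel_left]⟩
    · show y.1⁻¹ * x.1 = 1
      rw [hyx', inv_mul_cancel]
    · show π (y.2⁻¹ * x.2) = 1
      rw [map_mul, map_inv, ← hTm.1 hx, ← hTm.1 (hDT hy), hyx', inv_mul_cancel]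
  have hzc : ∀ z : K × L, z.1 = 1 → π z.2 = 1 → ∀ g, z * g = g * z := by
    intro z h1 h2 g
    refine Prod.ext ?_ ?_
    · show z.1 * g.1 = g.1 * z.1
      rw [h1, one_mul, mul_one]
    · exact hcen z.2 h2 g.2
  have hDD : D ≤ ⁅D, D⁆ := by
    conv_lhs => rw [hD]
    rw [commutator_le]
    intro a ha b hb
    obtain ⟨a', ha', z, hz, rfl⟩ := hT1 a ha
    obtain ⟨b', hb', w, hw, rfl⟩ := hT1 b hb
    have e : ⁅a' * z, b' * w⁆ = ⁅a', b'⁆ := by
      have hz1 := hzc z hz.1 hz.2
      have hw1 := hzc w hw.1 hw.2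
      simp only [commutatorElement_def, mul_inv_rev]
      calc a' * z * (b' * w) * (z⁻¹ * a'⁻¹) * (w⁻¹ * b'⁻¹)
          = a' * (z * (b' * w)) * (z⁻¹ * a'⁻¹) * (w⁻¹ * b'⁻¹) := by group
        _ = a' * ((b' * w) * z) * (z⁻¹ * a'⁻¹) * (w⁻¹ * b'⁻¹) := by rw [hz1]
        _ = a' * b' * (w * a'⁻¹) * (w⁻¹ * b'⁻¹) := by group
        _ = a' * b' * (a'⁻¹ * w) * (w⁻¹ * b'⁻¹) := by rw [hw1]
        _ = a' * b' * a'⁻¹ * b'⁻¹ := by group
    rw [e]
    exact commutator_mem_commutator ha' hb'
  let ρ : D →* K := (MonoidHom.fst K L).comp D.subtype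
  have hρ : PCE ρ := by
    refine ⟨?_, ?_, ?_⟩
    · intro k
      have h2 : k ∈ D.map (MonoidHom.fst K L) := by rw [hDfst]; exact mem_top _
      obtain ⟨y, hy, hyx⟩ := h2
      exact ⟨⟨y, hy⟩, hyx⟩
    · intro x hx
      have hx' : x.1.1 = 1 := hx
      rw [mem_center_iff]
      intro g
      refine Subtype.ext (hzc x.1 hx' ?_ g.1).symm
      rw [← hTm.1 (hDT x.2), hx', map_one]
    · rw [eq_top_iff]
      rintro ⟨x, hx⟩ -
      have h3 := hDD hx
      have h4 : (⁅D, D⁆ : Subgroup (K × L)) = (commutator D).map D.subtype := by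
        rw [_root_.commutator_def, Subgroup.map_commutator, ← MonoidHom.range_eq_map, Subgroup.range_subtype]
      rw [h4] at h3
      obtain ⟨y, hy, hyx⟩ := h3
      have : y = ⟨x, hx⟩ := Subtype.ext hyx
      rwa [← this]
  -- the kernel embeds in `ker π`
  let ι : ρ.ker →* π.ker := MonoidHom.mk' (fun x => ⟨x.1.1.2, by
      have hx' : x.1.1.1 = 1 := x.2
      rw [MonoidHom.mem_ker, ← hTm.1 (hDT x.1.2), hx', map_one]⟩) (fun a b => rfl)
  have hι : Function.Injective ι := by
    intro a b hab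
    have h1 : a.1.1.2 = b.1.1.2 := congrArg Subtype.val hab
    have h2 : a.1.1.1 = 1 := a.2
    have h3 : b.1.1.1 = 1 := b.2
    exact Subtype.ext (Subtype.ext (Prod.ext (h2.trans h3.symm) h1))
  have hdvd : Nat.card ρ.ker ∣ p := by
    rw [← hc]
    exact Subgroup.card_dvd_of_injective ι hι
  have hone : Nat.card ρ.ker = 1 := by
    rcases (Nat.dvd_prime hp).1 hdvd with h1 | h1
    · exact h1
    · exact absurd h1 (hN D ρ hρ)
  have hker : ρ.ker = ⊥ := Subgroup.card_eq_one.1 hone
  have hbij : Function.Bijective ρ := ⟨(MonoidHom.ker_eq_bot_iff ρ).1 hker, hρ.surj⟩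
  let e : D ≃* K := MulEquiv.ofBijective ρ hbij
  refine ⟨((MonoidHom.snd K L).comp D.subtype).comp e.symm.toMonoidHom, fun k => ?_⟩
  show π (e.symm k).1.2 = f k
  rw [← hTm.1 (hDT (e.symm k).2)]
  exact congrArg f (e.apply_symm_apply k)

end Cfsg.Agent.H52.Section
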